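import Mathlib.LinearAlgebra.Trace
import Mathlib.LinearAlgebra.Matrix.ToLin
import Mathlib.Analysis.Complex.Basic

/-!
# A factorised scaled idempotent of full trace
-/

set_option autoImplicit false

open Matrix Module

namespace Cfsg.Agent.H31.RankTwo

/-- If `A R Aᴴ` is `c` times an idempotent of trace `e`, with `A` having `e` columns, and
`R X = c`, then `Aᴴ A = X`. -/
theorem gram_eq_of_scaled_idem {ι : Type*} [Fintype ι] [DecidableEq ι] {e : ℕ}
    (A : Matrix ι (Fin e) ℂ) (R X : Matrix (Fin e) (Fin e) ℂ) {c : ℂ} (hc : c ≠ 0)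
    (hidem : A * R * Aᴴ * (A * R * Aᴴ) = c • (A * R * Aᴴ))
    (htr : (A * R * Aᴴ).trace = c * e) (hX : R * X = c • 1) : Aᴴ * A = X := by
  set B : Matrix (Fin e) ι ℂ := c⁻¹ • (R * Aᴴ) with hB
  have hAB : A * B = c⁻¹ • (A * R * Aᴴ) := by rw [hB, Matrix.mul_smul, Matrix.mul_assoc]
  have hP : A * B * (A * B) = A * B := by
    rw [hAB, Matrix.smul_mul, Matrix.mul_smul, hidem, smul_smul c⁻¹ c, inv_mul_cancel₀ hc, one_smul]
  have hPtr : (A * B).trace = (e : ℂ) := by
    rw [hAB, Matrix.trace_smul, htr, smul_eq_mul, inv_mul_cancel_left₀ hc]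
  set f := Matrix.toLin' (A * B) with hf
  have hfi : IsIdempotentElem f := by
    show f * f = f
    rw [Module.End.mul_eq_comp, hf, ← Matrix.toLin'_mul, hP]
  have hrank : finrank ℂ (LinearMap.range f) = e := by
    have h := (LinearMap.IsIdempotentElem.isProj_range f hfi).trace
    rw [hf, Matrix.trace_toLin'_eq, hPtr] at h
    exact_mod_cast h.symm
  have hle : LinearMap.range f ≤ LinearMap.range (Matrix.toLin' A) := by
    rw [hf, Matrix.toLin'_mul]
    exact LinearMap.range_comp_le_range _ _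
  have hdom : finrank ℂ (Fin e → ℂ) = e := Module.finrank_fin_fun ℂ
  have hrA : finrank ℂ (LinearMap.range (Matrix.toLin' A)) = e :=
    le_antisymm ((LinearMap.finrank_range_le _).trans hdom.le)
      (hrank.ge.trans (Submodule.finrank_mono hle))
  have heq := Submodule.eq_of_le_of_finrank_eq hle (hrank.trans hrA.symm)
  have hinj : Function.Injective (Matrix.toLin' A) := by
    rw [← LinearMap.ker_eq_bot, ← Submodule.finrank_eq_zero]
    have := LinearMap.finrank_range_add_finrank_ker (Matrix.toLin' A)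
    omega
  have hBA : B * A = 1 := by
    refine Matrix.toLin'.injective (LinearMap.ext fun v => hinj ?_)
    obtain ⟨w, hw⟩ := heq.ge (LinearMap.mem_range_self (Matrix.toLin' A) v)
    rw [Matrix.toLin'_one, LinearMap.id_apply, Matrix.toLin'_mul, LinearMap.comp_apply,
      ← LinearMap.comp_apply (Matrix.toLin' A), ← Matrix.toLin'_mul, ← hw, hf,
      ← LinearMap.comp_apply, ← Matrix.toLin'_mul, hP]
  have h1 : c⁻¹ • R * (Aᴴ * A) = 1 := by
    rw [← hBA, hB, Matrix.smul_mul, Matrix.smul_mul, Matrix.mul_assoc]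
  have h2 : c⁻¹ • R * X = 1 := by
    rw [Matrix.smul_mul, hX, smul_smul, inv_mul_cancel₀ hc, one_smul]
  calc Aᴴ * A = X * (c⁻¹ • R) * (Aᴴ * A) := by rw [mul_eq_one_comm.1 h2, Matrix.one_mul]
    _ = X := by rw [Matrix.mul_assoc, h1, Matrix.mul_one]

end Cfsg.Agent.H31.RankTwo
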