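import Cfsg.Agent.H40.NilpotentBlocks
import Cfsg.Agent.H22.PairDict
import Cfsg.Agent.H40.AbelianSubsections
import Cfsg.Agent.H44.Inflation
import Cfsg.Agent.H40.BlockBasic

/-!
# The block of the centralizer of an abelian defect group and its stabiliser
-/

set_option autoImplicit false

namespace Cfsg.Agent.H31.RankTwo

open Cfsg

variable {p : ℕ} [hp : Fact p.Prime] {M : Ideal Cfsg.AlgInt}

/-- A block of `C (D)` inducing `B`, and the stabiliser of it in `N (D)`. -/
theorem exists_local_data {G : Type*} [Group G] [Fintype G] (hM : Cfsg.IsPModular p M)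
    {B : Set (Cfsg.IrrCharacter G)} (hB : Cfsg.IsPBlock M B) {D : Subgroup G}
    (hD : Cfsg.IsDefectGroup p M B D) (hab : ∀ a ∈ D, ∀ c ∈ D, a * c = c * a) :
    ∃ (c : Set (Cfsg.IrrCharacter (Subgroup.centralizer (D : Set G)))) (T : Subgroup G),
      Cfsg.IsInducedBlock M (Subgroup.centralizer (D : Set G)) c B ∧
      ∀ g : G, g ∈ T ↔ (g ∈ Subgroup.normalizer (D : Set G) ∧ ∀ θ ∈ c,
        ∀ θ' : Cfsg.IrrCharacter (Subgroup.centralizer (D : Set G)),
          (∀ h h' : Subgroup.centralizer (D : Set G), (h' : G) = g * h * g⁻¹ →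
            (θ' : Subgroup.centralizer (D : Set G) → ℂ) h' =
              (θ : Subgroup.centralizer (D : Set G) → ℂ) h) → θ' ∈ c) := by
  classical
  have := hM.2.1
  have := H41.IsPModular.charP hM
  obtain ⟨e, hm⟩ := H40.NilpotentBlocks.exists_isMaxEl_of_defect hM hB hD
  have hblk : H22.IsBlockEl (Subgroup.centralizer (D : Set G)) e := by simpa using hm.pair.block
  obtain ⟨c, hc, rfl⟩ := H22.exists_el_eq hblk
  have hDC : D ≤ Subgroup.centralizer (D : Set G) := fun a ha =>
    Subgroup.mem_centralizer_iff.2 fun b hb => hab b hb a ha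
  refine ⟨c, H22.pairStab D (H22.el M (Subgroup.centralizer (D : Set G)) c),
    (H40.isInducedBlock_iff_below hM hB hm.pair.pGroup hDC _ rfl hc).2 hm.below, fun g => ?_⟩
  have hnn : g ∈ Subgroup.normalizer (D : Set G) →
      g ∈ Subgroup.normalizer ((Subgroup.centralizer (D : Set G) : Subgroup G) : Set G) :=
    fun h => H22.normalizer_le_normalizer_centralizer D h
  have hkey : g ∈ H22.pairStab D (H22.el M (Subgroup.centralizer (D : Set G)) c) ↔
      g ∈ Subgroup.normalizer (D : Set G) ∧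
        Cfsg.StabilizesBlock (Subgroup.centralizer (D : Set G)) c g :=
    ⟨fun h => ⟨h.1, (H22.stabilizesBlock_iff hc (hnn h.1)).2 h.2⟩,
      fun h => ⟨h.1, (H22.stabilizesBlock_iff hc (hnn h.1)).1 h.2⟩⟩
  rw [hkey]
  constructor
  · rintro ⟨hg, -, hst⟩
    refine ⟨hg, fun θ hθ θ' hθ' => ?_⟩
    obtain ⟨χ', hχ', hconj⟩ := hst θ hθ
    have : χ' = θ' := by
      refine Subtype.ext (funext fun h' => ?_)
      have hmem : g⁻¹ * (h' : G) * g ∈ Subgroup.centralizer (D : Set G) :=
        (Subgroup.mem_normalizer_iff''.1 (hnn hg) _).1 h'.2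
      rw [hconj ⟨_, hmem⟩ h' (by show (h' : G) = g * (g⁻¹ * h' * g) * g⁻¹; group),
        hθ' ⟨_, hmem⟩ h' (by show (h' : G) = g * (g⁻¹ * h' * g) * g⁻¹; group)]
    exact this ▸ hχ'
  · rintro ⟨hg, hst⟩
    refine ⟨hg, hnn hg, fun θ hθ => ?_⟩
    let K := Subgroup.centralizer (D : Set G)
    let α : K →* K :=
      { toFun := fun h => ⟨g⁻¹ * (h : G) * g, (Subgroup.mem_normalizer_iff''.1 (hnn hg) _).1 h.2⟩
        map_one' := Subtype.ext (by simp)
        map_mul' := fun a b => Subtype.ext (by simp [mul_assoc]) }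
    have hα : Function.Surjective α := fun h =>
      ⟨⟨g * (h : G) * g⁻¹, (Subgroup.mem_normalizer_iff.1 (hnn hg) _).1 h.2⟩,
        Subtype.ext (by simp [α]; group)⟩
    let θ' : Cfsg.IrrCharacter K :=
      ⟨fun h => (θ : K → ℂ) (α h), H44.isIrrCharacter_comp_surjective α hα θ.2⟩
    have hθ' : ∀ h h' : K, (h' : G) = g * h * g⁻¹ → (θ' : K → ℂ) h' = (θ : K → ℂ) h := by
      intro h h' hh
      show (θ : K → ℂ) (α h') = _
      rw [show α h' = h from Subtype.ext (show g⁻¹ * (h' : G) * g = (h : G) by rw [hh]; group)]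
    exact ⟨θ', hst θ hθ θ' hθ', hθ'⟩

end Cfsg.Agent.H31.RankTwo
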